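import Cfsg.Prelude.Def_Quasithin

set_option autoImplicit false

namespace Cfsg.Agent.Gate

/-- Hypothesis class: the known simple groups whose Sylow subgroups of odd order are cyclic. -/
class QTCyc.{u} : Prop where
  out : ∀ {K : Type u} [Group K] [Finite K] [IsSimpleGroup K], ¬ IsMulCommutative K →
    Cfsg.IsKnownSimple' K → (∀ p : ℕ, p.Prime → p ≠ 2 → Cfsg.PRankLE p 1 K) →
    (∃ (F : Type) (_ : Field F) (_ : Fintype F), CharP F 2 ∧
        Nonempty (K ≃* Matrix.ProjectiveSpecialLinearGroup (Fin 2) F)) ∨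
      Cfsg.Lie.IsoSuzuki K ∨
      (∃ (F : Type) (_ : Field F) (_ : Fintype F), (Fintype.card F).Prime ∧ Fintype.card F ≠ 2 ∧
        Nonempty (K ≃* Matrix.ProjectiveSpecialLinearGroup (Fin 2) F)) ∨
      Cfsg.Spor.IsoJ1 K

end Cfsg.Agent.Gate
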