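import Cfsg.Prelude.Def_Quasithin

set_option autoImplicit false

namespace Cfsg.Agent.Gate

/-- Hypothesis class: automorphisms induced on a quasisimple subgroup with centre of odd order
inside a strongly quasithin K-group (relative form; nothing is said about the whole outer
automorphism group). -/
class QTOutR.{u} : Prop where
  out : ∀ {X : Type u} [Group X] [Finite X] (L : Subgroup X), Cfsg.IsKGroup X →
    Cfsg.IsStronglyQuasithin X → Cfsg.IsQuasisimple L → Odd (Nat.card (Subgroup.center L)) →
    (∀ W : Subgroup X, ⁅W, W⁆ = W → W ≤ Subgroup.normalizer (L : Set X) →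
      W ≤ L ⊔ Subgroup.centralizer (L : Set X)) ∧
    (∀ p : ℕ, p.Prime → ¬ p ∣ Nat.card L →
      (∀ P : Subgroup X, IsPGroup p P → P ≤ Subgroup.normalizer (L : Set X) →
        ∃ x ∈ P, P ≤ Subgroup.zpowers x ⊔ Subgroup.centralizer (L : Set X)) ∧
      (∀ y ∈ ⁅Subgroup.normalizer (L : Set X), Subgroup.normalizer (L : Set X)⁆,
        (∃ k : ℕ, y ^ p ^ k = 1) → y ∈ Subgroup.centralizer (L : Set X)))

end Cfsg.Agent.Gate
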