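import Cfsg.Agent.Perm.ONanDefs

set_option autoImplicit false

namespace Cfsg.Agent.Gate

/-- Hypothesis class: O'Nan's theorem on abelian normal subgroups of a point stabiliser. -/
class ONanAb.{u} : Prop where
  out : ∀ (G X : Type u) [Group G] [Finite G] [MulAction G X] [Finite X],
    Cfsg.Lib.Perm.ONan.AbFor G X

end Cfsg.Agent.Gate
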