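import Cfsg.Agent.KInv.Defs
import Cfsg.Prelude.Def_Classification2

set_option autoImplicit false

namespace Cfsg.Agent.Gate

open Cfsg.Lib.KInv

/-- Hypothesis class: involution centralisers in some sporadic groups have at most one component, with a solvable quotient. -/
class KIL3.{u} : Prop where
  out : ∀ (G : Type u) [Group G] [Finite G],
    Spor.IsoSuz G ∨ Spor.IsoHe G ∨ Spor.IsoRu G ∨ Spor.IsoON G ∨ Spor.IsoLy G → Lib.KInv.One G

end Cfsg.Agent.Gate
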