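import Cfsg.Statements.S5383

set_option autoImplicit false

namespace Cfsg.Agent.Gate

/-- Hypothesis class: the frozen statement S5383 (field `out`). -/
class S5383.{u} : Prop where
  out : type_of% @Cfsg.CfsgFrozen.S5383.{u}

end Cfsg.Agent.Gate
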