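import Cfsg.Prelude.Def_ClassificationK
import Cfsg.Prelude.Def_Classical
import Cfsg.Prelude.Def_Spor_Fi22

set_option autoImplicit false

namespace Cfsg.Agent.Gate

/-- Hypothesis class: S3268 for a simple, locally balanced group with the strong B-property,
without the two hypotheses on proper sections. -/
class StdO8.{u} : Prop where
  out : ∀ {G : Type u} [Group G] [Finite G] [IsSimpleGroup G], ¬ IsMulCommutative G →
    (∀ t : G, orderOf t = 2 → centralizerPPrimeCore 2 t = ⊥) → HasStrongBProperty G →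
    ∀ (K₂ : Type) [Field K₂] [Fintype K₂], Fintype.card K₂ = 2 →
    ∀ L : Subgroup G, IsStandardSubgroup L → (↥L ≃* POmega K₂ (quadFormPlus 4 K₂)) →
    (∀ R : Sylow 2 ↥(Subgroup.centralizer (L : Set G)),
      IsCyclic ↥(R : Subgroup ↥(Subgroup.centralizer (L : Set G)))) →
    Nonempty (↥(layer G) ≃* POmega K₂ (quadFormPlus 4 K₂)) ∨
      Nonempty (↥(layer G) ≃* POmega K₂ (quadFormPlus 4 K₂) × POmega K₂ (quadFormPlus 4 K₂)) ∨
      (∃ (K : Type) (_ : Field K) (_ : Fintype K), Fintype.card K = 4 ∧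
        Nonempty (↥(layer G) ≃* POmega K (quadFormPlus 4 K))) ∨
      Spor.IsoFi22 ↥(layer G)

end Cfsg.Agent.Gate
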