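import Cfsg.Prelude.Def_ChevE8
import Cfsg.Prelude.Def_Spor_Th
import Mathlib.Algebra.Field.ZMod

set_option autoImplicit false

namespace Cfsg.Agent.Gate

/-- Hypothesis class: the presented Thompson group has a non-trivial homomorphism to the Chevalley
group of type `E₈` over the field with three elements. -/
class ThE8 : Prop where
  out : ∃ (f : Cfsg.Spor.Th →* Cfsg.Lie.chevE8.group (ZMod 3)) (x : Cfsg.Spor.Th), f x ≠ 1

end Cfsg.Agent.Gate
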